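import Mathlib
import Cfsg.Prelude.Def_Balance

/-!
# S1338 (a finite 3-group of 3-rank at least 4 is 2-connected): package statements (helper51)

Each `def LemX : Prop` below is a package: a self-contained statement to be proved in its own
file as `theorem lemX : LemX.{u}`.  The paper proof is in the team note of topic `S1338`.
-/

set_option autoImplicit false

namespace Cfsg.Agent.Lib.Helper51.EA38

universe u

/-- Every element of order dividing `p` that centralizes `W` lies in `W`. -/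
def OmegaCent {P : Type u} [Group P] (p : ℕ) (W : Subgroup P) : Prop :=
  ∀ x : P, (∀ w ∈ W, x * w = w * x) → x ^ p = 1 → x ∈ W

/-- (Q1) Alperin's lemma: for `p` odd, a maximal normal elementary abelian subgroup `W` of a
finite `p`-group contains every element of order `p` of its centralizer. -/
def LemAlperin : Prop :=
  ∀ {P : Type u} [Group P] [Finite P] {p : ℕ} [Fact p.Prime], p ≠ 2 → IsPGroup p P →
    ∀ W : Subgroup P, W.Normal → Cfsg.IsElementaryAbelian p W →
    (∀ W' : Subgroup P, W'.Normal → Cfsg.IsElementaryAbelian p W' → W ≤ W' → W' = W) →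
    OmegaCent p W

/-- (Q2) The cube bound: an element `x` with `x ^ 3 = 1` acting on a normal elementary abelian
`3`-subgroup `W` satisfies `|W| ≤ |C_W(x)| ^ 3`. -/
def LemCube : Prop :=
  ∀ {P : Type u} [Group P] [Finite P] (W : Subgroup P), W.Normal →
    Cfsg.IsElementaryAbelian 3 W → ∀ x : P, x ^ 3 = 1 →
    Nat.card W ≤ Nat.card ↥(W ⊓ Subgroup.centralizer {x}) ^ 3

/-- (Q3) A normal subgroup `N` of order `p ^ (k + 1)` of a finite `p`-group contains a normal
subgroup `M` of order `p ^ k` with `[N, P] ≤ M`. -/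
def LemChain : Prop :=
  ∀ {P : Type u} [Group P] [Finite P] {p : ℕ} [Fact p.Prime], IsPGroup p P →
    ∀ (N : Subgroup P) (k : ℕ), N.Normal → Nat.card N = p ^ (k + 1) →
    ∃ M : Subgroup P, M ≤ N ∧ M.Normal ∧ Nat.card M = p ^ k ∧
      ∀ n ∈ N, ∀ g : P, g * n * g⁻¹ * n⁻¹ ∈ M

/-- (Q4) The commutator map `a ↦ [w, a]` is a homomorphism `A → Z` when `A` centralizes `Z`;
its kernel is `C_A(w)`. -/
def LemStep : Prop :=
  ∀ {P : Type u} [Group P] [Finite P] (A Z : Subgroup P) (w : P),
    (∀ a ∈ A, w * a * w⁻¹ * a⁻¹ ∈ Z) → (∀ a ∈ A, ∀ z ∈ Z, a * z = z * a) →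
    Nat.card A ≤ Nat.card Z * Nat.card ↥(A ⊓ Subgroup.centralizer {w})

/-- (Q5) If `W` is normal elementary abelian of order at most `9` with `OmegaCent`, then every
elementary abelian subgroup has order at most `27`. -/
def LemSmall : Prop :=
  ∀ {P : Type u} [Group P] [Finite P], IsPGroup 3 P →
    ∀ W : Subgroup P, W.Normal → Cfsg.IsElementaryAbelian 3 W → OmegaCent 3 W →
    Nat.card W ≤ 9 → ∀ E : Subgroup P, Cfsg.IsElementaryAbelian 3 E → Nat.card E ≤ 27

/-- The configuration `W₁ < W₂ < W` with `|W| = 27`. -/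
structure Config {P : Type u} [Group P] (W W₂ W₁ : Subgroup P) : Prop where
  normal : W.Normal
  ea : Cfsg.IsElementaryAbelian 3 W
  card : Nat.card W = 27
  omega : OmegaCent 3 W
  le₂ : W₂ ≤ W
  card₂ : Nat.card W₂ = 9
  comm₂ : ∀ w ∈ W, ∀ g : P, g * w * g⁻¹ * w⁻¹ ∈ W₂
  le₁ : W₁ ≤ W₂
  card₁ : Nat.card W₁ = 3
  comm₁ : ∀ w ∈ W₂, ∀ g : P, g * w * g⁻¹ * w⁻¹ ∈ W₁
  central₁ : ∀ w ∈ W₁, ∀ g : P, g * w = w * g

/-- The conclusion of (Q6) for all elementary abelian subgroups of order at least `81`. -/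
def Rank4Shape {P : Type u} [Group P] (W W₂ : Subgroup P) : Prop :=
  ∀ E : Subgroup P, Cfsg.IsElementaryAbelian 3 E → 81 ≤ Nat.card E →
    Nat.card E = 81 ∧ E ⊓ W = W₂ ∧ ∀ e ∈ E, ∀ w ∈ W₂, e * w = w * e

/-- (Q6) In the configuration, every elementary abelian `E` of order at least `81` has order
exactly `81`, meets `W` in `W₂` and centralizes `W₂`. -/
def LemClaim1 : Prop :=
  ∀ {P : Type u} [Group P] [Finite P], IsPGroup 3 P →
    ∀ W W₂ W₁ : Subgroup P, Config W W₂ W₁ → Rank4Shape W W₂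

/-- (Q7) In the configuration (only `W₂ < W` is needed), every elementary abelian `E` of order
at least `81` is normal. -/
def LemClaim2 : Prop :=
  ∀ {P : Type u} [Group P] [Finite P], IsPGroup 3 P →
    ∀ W W₂ : Subgroup P, W.Normal → Cfsg.IsElementaryAbelian 3 W → Nat.card W = 27 →
    OmegaCent 3 W → W₂ ≤ W → Nat.card W₂ = 9 → (∀ w ∈ W, ∀ g : P, g * w * g⁻¹ * w⁻¹ ∈ W₂) →
    Rank4Shape W W₂ →
    ∀ E : Subgroup P, Cfsg.IsElementaryAbelian 3 E → 81 ≤ Nat.card E → E.Normal

/-- (Q8) A finite `3`-group with an elementary abelian subgroup of order at least `81` has a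
normal one (from (Q1), (Q3), (Q5), (Q6), (Q7)). -/
def LemNormal : Prop :=
  ∀ {P : Type u} [Group P] [Finite P], IsPGroup 3 P →
    (∃ E : Subgroup P, Cfsg.IsElementaryAbelian 3 E ∧ 81 ≤ Nat.card E) →
    ∃ W : Subgroup P, W.Normal ∧ Cfsg.IsElementaryAbelian 3 W ∧ 81 ≤ Nat.card W

/-- (Q9) In a finite `3`-group with a normal elementary abelian subgroup of order at least `81`,
the centralizer of every elementary abelian subgroup `X` of order at least `9` contains an
elementary abelian subgroup of order greater than `9` (from (Q2)). -/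
def LemKey : Prop :=
  ∀ {P : Type u} [Group P] [Finite P], IsPGroup 3 P →
    ∀ W : Subgroup P, W.Normal → Cfsg.IsElementaryAbelian 3 W → 81 ≤ Nat.card W →
    ∀ X : Subgroup P, Cfsg.IsElementaryAbelian 3 X → 9 ≤ Nat.card X →
    ∃ D : Subgroup P, Cfsg.IsElementaryAbelian 3 D ∧ D ≤ Subgroup.centralizer (X : Set P) ∧
      9 < Nat.card D

end Cfsg.Agent.Lib.Helper51.EA38
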