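import Mathlib
import Cfsg.Agent.Lib.Helper51.EA38.Defs
import Cfsg.Agent.Lib.Helper23.PGroupEA
import Cfsg.Agent.Lib.Helper23.KConn
import Cfsg.Agent.Lib.Helper53.PGroups

/-!
# S1338: assembly of the packages (helper51)
-/

set_option autoImplicit false

namespace Cfsg.Agent.Lib.Helper51.EA38

open Cfsg Cfsg.Agent.Lib.Helper23

universe u

/-- A subgroup of a group of order `9` other than the whole group has order at most `3`. -/
theorem card_le_three_of_lt {P : Type u} [Group P] [Finite P] {A B : Subgroup P} (hAB : A ≤ B)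
    (hne : A ≠ B) (hB : Nat.card B = 9) : Nat.card A ≤ 3 := by
  have hdvd : Nat.card A ∣ Nat.card B := Subgroup.card_dvd_of_le hAB
  rw [hB] at hdvd
  have hlt : Nat.card A ≠ 9 := by
    intro h9
    exact hne (Subgroup.eq_of_le_of_card_ge hAB (by rw [hB, h9]))
  have hle : Nat.card A ≤ 9 := Nat.le_of_dvd (by norm_num) hdvd
  have hpos : 0 < Nat.card A := Nat.card_pos
  interval_cases h : Nat.card A <;> simp_all

/-- (Q8) from (Q1), (Q3), (Q5), (Q6), (Q7). -/
theorem lemNormal (hA : LemAlperin.{u}) (hC : LemChain.{u}) (hS : LemSmall.{u})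
    (h1 : LemClaim1.{u}) (h2 : LemClaim2.{u}) : LemNormal.{u} := by
  intro P _ _ hP hex
  obtain ⟨E, hE, hEc⟩ := hex
  have : Fact (Nat.Prime 3) := ⟨Nat.prime_three⟩
  by_contra hcon
  push Not at hcon
  -- a normal elementary abelian subgroup of maximal order
  let S : Type u := {W : Subgroup P // W.Normal ∧ IsElementaryAbelian 3 W}
  have : Nonempty S := ⟨⟨⊥, Subgroup.normal_bot, isEA_of_le hE bot_le⟩⟩
  obtain ⟨⟨W, hWn, hWEA⟩, hWmax⟩ := Finite.exists_max (fun W : S => Nat.card W.1)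
  have hmax : ∀ W' : Subgroup P, W'.Normal → IsElementaryAbelian 3 W' → W ≤ W' → W' = W := by
    intro W' hW'n hW'EA hle
    exact (Subgroup.eq_of_le_of_card_ge hle (hWmax ⟨W', hW'n, hW'EA⟩)).symm
  have hΩ : OmegaCent 3 W := hA (p := 3) (by norm_num) hP W hWn hWEA hmax
  obtain ⟨n, hn⟩ := IsPGroup.iff_card.mp (hP.to_subgroup W)
  have hlt : Nat.card W < 81 := hcon W hWn hWEA
  have hn4 : n < 4 := by
    rw [hn] at hlt
    by_contra h4
    have : 3 ^ 4 ≤ 3 ^ n := Nat.pow_le_pow_right (by norm_num) (by omega)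
    omega
  by_cases hn2 : n ≤ 2
  · have h9 : Nat.card W ≤ 9 := by
      rw [hn]
      calc 3 ^ n ≤ 3 ^ 2 := Nat.pow_le_pow_right (by norm_num) hn2
        _ = 9 := by norm_num
    have := hS hP W hWn hWEA hΩ h9 E hE
    omega
  · have hn3 : n = 3 := by omega
    subst hn3
    obtain ⟨W₂, hW₂W, hW₂n, hW₂c, hc₂⟩ := hC hP W 2 hWn hn
    obtain ⟨W₁, hW₁W₂, hW₁n, hW₁c, hc₁⟩ := hC hP W₂ 1 hW₂n hW₂c
    obtain ⟨W₀, hW₀W₁, hW₀n, hW₀c, hc₀⟩ := hC hP W₁ 0 hW₁n (by rw [hW₁c])
    have hW₀ : W₀ = ⊥ := by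
      rw [pow_zero] at hW₀c
      exact Subgroup.card_eq_one.mp hW₀c
    have hcen : ∀ w ∈ W₁, ∀ g : P, g * w = w * g := by
      intro w hw g
      have h := hc₀ w hw g
      rw [hW₀, Subgroup.mem_bot] at h
      calc g * w = g * w * g⁻¹ * w⁻¹ * (w * g) := by group
        _ = w * g := by rw [h, one_mul]
    have cfg : Config W W₂ W₁ :=
      { normal := hWn
        ea := hWEA
        card := by rw [hn]; norm_num
        omega := hΩ
        le₂ := hW₂W
        card₂ := by rw [hW₂c]; norm_num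
        comm₂ := hc₂
        le₁ := hW₁W₂
        card₁ := by rw [hW₁c]; norm_num
        comm₁ := hc₁
        central₁ := hcen }
    have hshape : Rank4Shape W W₂ := h1 hP W W₂ W₁ cfg
    have hEn : E.Normal := h2 hP W W₂ hWn hWEA cfg.card hΩ hW₂W cfg.card₂ hc₂ hshape E hE hEc
    have := hcon E hEn hE
    omega

/-- (Q9) from (Q2). -/
theorem lemKey (hCube : LemCube.{u}) : LemKey.{u} := by
  intro P _ _ hP W hWn hWEA hWc X hX hXc
  have : Fact (Nat.Prime 3) := ⟨Nat.prime_three⟩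
  have hXcent : X ≤ Subgroup.centralizer (X : Set P) := by
    intro x hx
    rw [Subgroup.mem_centralizer_iff]
    intro y hy
    exact isEA_comm hX hy hx
  by_cases h9 : 9 < Nat.card X
  · exact ⟨X, hX, hXcent, h9⟩
  have hX9 : Nat.card X = 9 := le_antisymm (not_lt.mp h9) hXc
  set V := W ⊓ Subgroup.centralizer (X : Set P) with hV
  have hVEA : IsElementaryAbelian 3 V := isEA_of_le hWEA inf_le_left
  have hXV : ∀ a ∈ X, ∀ b ∈ V, a * b = b * a := fun a ha b hb =>
    Subgroup.mem_centralizer_iff.mp (Subgroup.mem_inf.mp hb).2 a ha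
  refine ⟨X ⊔ V, isEA_sup hX hVEA hXV, sup_le hXcent inf_le_right, ?_⟩
  by_contra hle
  push Not at hle
  have h1 : X = X ⊔ V := Subgroup.eq_of_le_of_card_ge le_sup_left (by rw [hX9]; exact hle)
  have hVX : V ≤ X := by
    rw [h1]
    exact le_sup_right
  have hXW : ¬ X ≤ W := by
    intro hXW
    have hWC : W ≤ Subgroup.centralizer (X : Set P) := by
      intro w hw
      rw [Subgroup.mem_centralizer_iff]
      intro y hy
      exact isEA_comm hWEA (hXW hy) hw
    have hWX : W ≤ X := le_trans (le_inf le_rfl hWC) hVX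
    have := Subgroup.card_le_of_le hWX
    omega
  obtain ⟨x, hxX, hxW⟩ := SetLike.not_le_iff_exists.mp hXW
  have hPXW : IsPGroup 3 ↥(X ⊔ W) := hP.to_subgroup _
  have hWne : W ≠ ⊥ := by
    intro h
    rw [h, Subgroup.card_bot] at hWc
    omega
  have hnorm : X ⊔ W ≤ Subgroup.normalizer (W : Set P) := by
    rw [Subgroup.normalizer_eq_top]
    exact le_top
  obtain ⟨y, hyW, hy1, hyc⟩ :=
    Cfsg.Agent.Lib.Helper53.exists_mem_center_of_normal_subgroup hPXW
      (le_sup_right : W ≤ X ⊔ W) hnorm hWne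
  have hyV : y ∈ V := by
    refine Subgroup.mem_inf.mpr ⟨hyW, ?_⟩
    rw [Subgroup.mem_centralizer_iff]
    intro g hg
    exact hyc g (Subgroup.mem_sup_left hg)
  have hyX : y ∈ X := hVX hyV
  have hV1 : W ⊓ Subgroup.centralizer {x} ≤ V := by
    intro v hv
    obtain ⟨hvW, hvx⟩ := Subgroup.mem_inf.mp hv
    refine Subgroup.mem_inf.mpr ⟨hvW, ?_⟩
    rw [Subgroup.mem_centralizer_iff] at hvx
    have hxv : x * v = v * x := hvx x (Set.mem_singleton x)
    -- the subgroup of `X` centralizing `v`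
    set T := X ⊓ Subgroup.centralizer {v} with hT
    have hxT : x ∈ T := by
      refine Subgroup.mem_inf.mpr ⟨hxX, ?_⟩
      rw [Subgroup.mem_centralizer_iff]
      intro z hz
      rw [Set.mem_singleton_iff] at hz
      subst hz
      exact hxv.symm
    have hyT : y ∈ T := by
      refine Subgroup.mem_inf.mpr ⟨hyX, ?_⟩
      rw [Subgroup.mem_centralizer_iff]
      intro z hz
      rw [Set.mem_singleton_iff] at hz
      subst hz
      exact isEA_comm hWEA hvW hyW
    have hTX : T = X := by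
      by_contra hne
      have hT3 : Nat.card T ≤ 3 := card_le_three_of_lt inf_le_left hne hX9
      -- `T ⊓ W` is a nontrivial proper subgroup of `T`
      have hdvd : Nat.card ↥(T ⊓ W) ∣ Nat.card T := Subgroup.card_dvd_of_le inf_le_left
      have hTdvd : Nat.card T ∣ 9 := by
        rw [← hX9]
        exact Subgroup.card_dvd_of_le inf_le_left
      have hne1 : Nat.card ↥(T ⊓ W) ≠ 1 := by
        intro h
        have hb : T ⊓ W = ⊥ := Subgroup.card_eq_one.mp h
        have : y ∈ T ⊓ W := Subgroup.mem_inf.mpr ⟨hyT, hyW⟩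
        rw [hb, Subgroup.mem_bot] at this
        exact hy1 this
      have hneT : Nat.card ↥(T ⊓ W) ≠ Nat.card T := by
        intro h
        have hb : T ⊓ W = T := Subgroup.eq_of_le_of_card_ge inf_le_left (by rw [h])
        have : x ∈ T ⊓ W := by rw [hb]; exact hxT
        exact hxW (Subgroup.mem_inf.mp this).2
      have hpos : 0 < Nat.card T := Nat.card_pos
      have hpos' : 0 < Nat.card ↥(T ⊓ W) := Nat.card_pos
      have hle' : Nat.card ↥(T ⊓ W) ≤ Nat.card T := Nat.le_of_dvd hpos hdvd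
      interval_cases hc : Nat.card T
      · omega
      · omega
      · have h2 : Nat.card ↥(T ⊓ W) = 2 := by omega
        rw [h2] at hdvd
        omega
    rw [Subgroup.mem_centralizer_iff]
    intro z hz
    have hzT : z ∈ T := by rw [hTX]; exact hz
    have hzv := (Subgroup.mem_inf.mp hzT).2
    rw [Subgroup.mem_centralizer_iff] at hzv
    exact (hzv v (Set.mem_singleton v)).symm
  have hcube := hCube W hWn hWEA x (hX.2 x hxX)
  have hXW3 : Nat.card ↥(X ⊓ W) ≤ 3 := by
    apply card_le_three_of_lt inf_le_left _ hX9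
    intro h
    have : x ∈ X ⊓ W := by rw [h]; exact hxX
    exact hxW (Subgroup.mem_inf.mp this).2
  have hV3 : Nat.card ↥(W ⊓ Subgroup.centralizer {x}) ≤ 3 :=
    le_trans (Subgroup.card_le_of_le (le_trans hV1 (le_inf hVX inf_le_left))) hXW3
  have : Nat.card ↥(W ⊓ Subgroup.centralizer {x}) ^ 3 ≤ 3 ^ 3 := Nat.pow_le_pow_left hV3 3
  omega

/-- S1338 from (Q8) and (Q9). -/
theorem main (hN : LemNormal.{u}) (hK : LemKey.{u}) {P : Type u} [Group P] [Finite P]
    (hP : IsPGroup 3 P) (hrk : ¬ Cfsg.PRankLE 3 3 P) : Cfsg.IsKConnected 3 2 P := by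
  have : Fact (Nat.Prime 3) := ⟨Nat.prime_three⟩
  unfold Cfsg.PRankLE at hrk
  push Not at hrk
  obtain ⟨A, hAc, hAe, hAcard⟩ := hrk
  have hAEA : IsElementaryAbelian 3 A := ⟨hAc, hAe⟩
  have hA81 : 81 ≤ Nat.card A := by
    obtain ⟨n, hn⟩ := IsPGroup.iff_card.mp (hP.to_subgroup A)
    rw [hn] at hAcard ⊢
    have h3 : 3 < n := (Nat.pow_lt_pow_iff_right (by norm_num)).mp hAcard
    calc 81 = 3 ^ 4 := by norm_num
      _ ≤ 3 ^ n := Nat.pow_le_pow_right (by norm_num) h3
  obtain ⟨W, hWn, hWEA, hWc⟩ := hN hP ⟨A, hAEA, hA81⟩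
  have hrk2 : ¬ Cfsg.PRankLE 3 2 P := by
    intro h
    have := h A hAc hAe
    omega
  obtain ⟨U, hUn, hUEA, hUcard, hstar⟩ := exists_normal_EA_sq 3 hP hrk2
  have key : ∀ X : Subgroup P, IsElementaryAbelian 3 X → 3 ^ 2 ≤ Nat.card X →
      Relation.ReflTransGen (KRel 3 2) X U := by
    intro X hX hXc
    rw [kConn_two_iff 3 hP hrk2 U hUEA hUcard hstar X hX hXc]
    obtain ⟨D, hD, hDC, hDc⟩ := hK hP W hWn hWEA hWc X hX (by norm_num at hXc ⊢; exact hXc)
    exact not_pRankLE_of_le 3 hD hDC (by norm_num; exact hDc)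
  intro E E' hE hEc hE' hE'c
  exact (key E hE hEc).trans (kConn_symm 3 2 (key E' hE' hE'c))

end Cfsg.Agent.Lib.Helper51.EA38
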