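import Mathlib
import Cfsg.Agent.Lib.Helper51.EA38.Defs

/-!
# S1338, package (Q3) `LemChain` (helper51)
-/

set_option autoImplicit false

namespace Cfsg.Agent.Lib.Helper51.EA38

universe u

open scoped commutatorElement

/-- In a nilpotent group a nontrivial normal subgroup `N` satisfies `[N, G] ≠ N`. -/
theorem commutator_top_ne_self {G : Type u} [Group G] [hnil : Group.IsNilpotent G]
    (N : Subgroup G) (hN : N ≠ ⊥) : ⁅N, (⊤ : Subgroup G)⁆ ≠ N := by
  intro h
  obtain ⟨n, hn⟩ := Subgroup.nilpotent_iff_lowerCentralSeries.mp hnil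
  have hle : ∀ m : ℕ, N ≤ (⊤ : Subgroup G).lowerCentralSeries m := by
    intro m
    induction m with
    | zero => exact le_top
    | succ m ih =>
      rw [Subgroup.lowerCentralSeries_succ]
      calc N = ⁅N, (⊤ : Subgroup G)⁆ := h.symm
        _ ≤ ⁅(⊤ : Subgroup G).lowerCentralSeries m, (⊤ : Subgroup G)⁆ :=
          Subgroup.commutator_mono ih le_rfl
  have := hle n
  rw [hn] at this
  exact hN (le_bot_iff.mp this)

/-- Package (Q3) of S1338. -/
theorem lemChain : LemChain.{u} := by
  intro P _ _ p _ hP N k hNn hNc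
  have hp : p.Prime := Fact.out
  have : Group.IsNilpotent P := hP.isNilpotent
  set L : Subgroup P := ⁅N, (⊤ : Subgroup P)⁆ with hL
  have hLN : L ≤ N := Subgroup.commutator_le_left N ⊤
  have hNbot : N ≠ ⊥ := by
    intro h
    rw [h, Subgroup.card_bot] at hNc
    have : 1 < p ^ (k + 1) := Nat.one_lt_pow (by omega) hp.one_lt
    omega
  have hLne : L ≠ N := commutator_top_ne_self N hNbot
  obtain ⟨m, hm⟩ := IsPGroup.iff_card.mp (hP.to_subgroup L)
  have hmk : m ≤ k := by
    by_contra hcon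
    push Not at hcon
    have h1 : Nat.card N ≤ Nat.card L := by
      rw [hNc, hm]
      exact Nat.pow_le_pow_right hp.pos hcon
    exact hLne (Subgroup.eq_of_le_of_card_ge hLN h1)
  -- a subgroup of `N` of order `p ^ k` containing `L`
  have hcardsub : Nat.card ↥(L.subgroupOf N) = p ^ m := by
    rw [← hm]
    exact Nat.card_congr (Subgroup.subgroupOfEquivOfLe hLN).toEquiv
  have hdvd : p ^ k ∣ Nat.card ↥N := by
    rw [hNc]
    exact pow_dvd_pow p (Nat.le_succ k)
  obtain ⟨K, hKc, hLK⟩ := Sylow.exists_subgroup_card_pow_prime_le p hdvd (L.subgroupOf N)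
    hcardsub hmk
  have hLM : L ≤ K.map N.subtype := by
    intro l hl
    refine Subgroup.mem_map.mpr ⟨⟨l, hLN hl⟩, hLK ?_, rfl⟩
    rw [Subgroup.mem_subgroupOf]
    exact hl
  have hMN : K.map N.subtype ≤ N := Subgroup.map_subtype_le K
  have hcomm : ∀ n ∈ N, ∀ g : P, g * n * g⁻¹ * n⁻¹ ∈ K.map N.subtype := by
    intro n hn g
    apply hLM
    have h1 : ⁅g, n⁆ ∈ ⁅(⊤ : Subgroup P), N⁆ :=
      Subgroup.commutator_mem_commutator (Subgroup.mem_top g) hn
    rw [Subgroup.commutator_comm] at h1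
    rw [commutatorElement_def] at h1
    exact h1
  refine ⟨K.map N.subtype, hMN, ?_, ?_, hcomm⟩
  · constructor
    intro n hn g
    have h1 := hcomm n (hMN hn) g
    have h2 : g * n * g⁻¹ = g * n * g⁻¹ * n⁻¹ * n := by group
    rw [h2]
    exact Subgroup.mul_mem _ h1 hn
  · rw [Subgroup.card_map_of_injective N.subtype_injective]
    exact hKc

end Cfsg.Agent.Lib.Helper51.EA38
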