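import Mathlib
import Cfsg.Agent.Lib.Helper51.EA38.Defs

/-!
# S1338, package (Q2) `LemCube` (helper51, hedge copy)
-/

set_option autoImplicit false

namespace Cfsg.Agent.Lib.Helper51.EA38

open Cfsg

universe u

theorem add_calc51 {M : Type*} [AddCommGroup M] (a b c : M) :
    a - c + b - c + b - a + b - c = 3 • b - 3 • c := by abel

theorem mul_calc51 {M : Type*} [CommGroup M] (a b c : M) :
    a / c * b / c * b / a * b / c = b ^ 3 / c ^ 3 :=
  add_calc51 (M := Additive M) a b c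

/-- A computation in a commutative group. -/
theorem mul_calc51' {M : Type*} [CommGroup M] (a b c : M) :
    a * c⁻¹ * b * c⁻¹ * b * a⁻¹ * b * c⁻¹ = b ^ 3 * (c ^ 3)⁻¹ := by
  have := mul_calc51 a b c
  simpa only [div_eq_mul_inv] using this

/-- For a hom `φ : W →* W` and a subgroup `S`, `|S| ≤ |ker φ| * |φ(S)|`. -/
theorem card_le_card_ker_mul_card_map {W : Type u} [Group W] [Finite W] (φ : W →* W)
    (S : Subgroup W) : Nat.card S ≤ Nat.card φ.ker * Nat.card ↥(S.map φ) := by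
  have h3 : Nat.card ↥(φ.comp S.subtype).ker * (φ.comp S.subtype).ker.index = Nat.card ↥S :=
    Subgroup.card_mul_index (φ.comp S.subtype).ker
  have hr : (φ.comp S.subtype).range = S.map φ := by
    rw [← MonoidHom.map_range, Subgroup.range_subtype]
  rw [Subgroup.index_ker, hr] at h3
  have h1 : Nat.card ↥(φ.comp S.subtype).ker ≤ Nat.card ↥φ.ker := by
    apply Nat.card_le_card_of_injective
      (fun a : ↥(φ.comp S.subtype).ker => (⟨((a : ↥S) : W), by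
        have h := a.2
        rw [MonoidHom.mem_ker] at h ⊢
        exact h⟩ : ↥φ.ker))
    intro a b hab
    have h2 : ((a : ↥S) : W) = ((b : ↥S) : W) := congrArg (fun t : ↥φ.ker => (t : W)) hab
    exact Subtype.ext (Subtype.ext h2)
  calc Nat.card S = Nat.card ↥(φ.comp S.subtype).ker * Nat.card ↥(S.map φ) := h3.symm
    _ ≤ Nat.card φ.ker * Nat.card ↥(S.map φ) := Nat.mul_le_mul_right _ h1

/-- Package (Q2) of S1338. -/
theorem lemCube : LemCube.{u} := by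
  intro P _ _ W hWn hWEA x hx3
  have hcomm : ∀ a b : ↥W, a * b = b * a := isMulCommutative_iff.mp hWEA.1
  have hcommP : ∀ a ∈ W, ∀ b ∈ W, a * b = b * a := by
    intro a ha b hb
    exact congrArg Subtype.val (hcomm ⟨a, ha⟩ ⟨b, hb⟩)
  have hconj : ∀ a ∈ W, x * a * x⁻¹ ∈ W := fun a ha => hWn.conj_mem a ha x
  have hmem : ∀ a ∈ W, x * a * x⁻¹ * a⁻¹ ∈ W := fun a ha =>
    W.mul_mem (hconj a ha) (W.inv_mem ha)
  let φ : ↥W →* ↥W :=
    { toFun := fun a => ⟨x * a * x⁻¹ * (a : P)⁻¹, hmem a a.2⟩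
      map_one' := by
        apply Subtype.ext
        simp
      map_mul' := by
        intro a b
        apply Subtype.ext
        show x * ((a : P) * (b : P)) * x⁻¹ * ((a : P) * (b : P))⁻¹ =
          (x * a * x⁻¹ * (a : P)⁻¹) * (x * b * x⁻¹ * (b : P)⁻¹)
        have h := hcommP _ (W.inv_mem a.2) _ (hmem b b.2)
        calc x * ((a : P) * (b : P)) * x⁻¹ * ((a : P) * (b : P))⁻¹
            = x * a * x⁻¹ * ((x * b * x⁻¹ * (b : P)⁻¹) * (a : P)⁻¹) := by group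
          _ = x * a * x⁻¹ * ((a : P)⁻¹ * (x * b * x⁻¹ * (b : P)⁻¹)) := by rw [h]
          _ = (x * a * x⁻¹ * (a : P)⁻¹) * (x * b * x⁻¹ * (b : P)⁻¹) := by group }
  have hφ : ∀ a : ↥W, ((φ a : ↥W) : P) = x * a * x⁻¹ * (a : P)⁻¹ := fun a => rfl
  -- `φ ^ 3 = 1`
  have hcube : ∀ a : ↥W, φ (φ (φ a)) = 1 := by
    intro a
    apply Subtype.ext
    rw [hφ, hφ, hφ]
    have hb : x * (a : P) * x⁻¹ ∈ W := hconj a a.2
    have hc : x * (x * (a : P) * x⁻¹) * x⁻¹ ∈ W := hconj _ hb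
    have hb3 : (x * (a : P) * x⁻¹) ^ 3 = 1 := hWEA.2 _ hb
    have hc3 : (x * (x * (a : P) * x⁻¹) * x⁻¹) ^ 3 = 1 := hWEA.2 _ hc
    have hx3' : x * x * x = 1 := by rw [← hx3, pow_succ, pow_two]
    have hd : x * (x * (x * (a : P) * x⁻¹) * x⁻¹) * x⁻¹ = a := by
      have h1 : x * (x * (x * (a : P) * x⁻¹) * x⁻¹) * x⁻¹ =
          (x * x * x) * a * (x * x * x)⁻¹ := by group
      rw [h1, hx3']
      simp
    -- a free group identity
    have hexp : x * (x * (x * (a : P) * x⁻¹ * (a : P)⁻¹) * x⁻¹ * (x * (a : P) * x⁻¹ * (a : P)⁻¹)⁻¹)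
        * x⁻¹ * (x * (x * (a : P) * x⁻¹ * (a : P)⁻¹) * x⁻¹ * (x * (a : P) * x⁻¹ * (a : P)⁻¹)⁻¹)⁻¹
        = (x * (x * (x * (a : P) * x⁻¹) * x⁻¹) * x⁻¹) * (x * (x * (a : P) * x⁻¹) * x⁻¹)⁻¹
          * (x * (a : P) * x⁻¹) * (x * (x * (a : P) * x⁻¹) * x⁻¹)⁻¹ * (x * (a : P) * x⁻¹)
          * (a : P)⁻¹ * (x * (a : P) * x⁻¹) * (x * (x * (a : P) * x⁻¹) * x⁻¹)⁻¹ := by
      group
    rw [hexp, hd]
    -- now a computation in the commutative group `W`
    let _ : CommGroup ↥W := { (inferInstance : Group ↥W) with mul_comm := hcomm }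
    have hcalc := mul_calc51' (a : ↥W) (⟨_, hb⟩ : ↥W) (⟨_, hc⟩ : ↥W)
    have hcalc' : (a : P) * (x * (x * (a : P) * x⁻¹) * x⁻¹)⁻¹
          * (x * (a : P) * x⁻¹) * (x * (x * (a : P) * x⁻¹) * x⁻¹)⁻¹ * (x * (a : P) * x⁻¹)
          * (a : P)⁻¹ * (x * (a : P) * x⁻¹) * (x * (x * (a : P) * x⁻¹) * x⁻¹)⁻¹
        = (x * (a : P) * x⁻¹) ^ 3 * ((x * (x * (a : P) * x⁻¹) * x⁻¹) ^ 3)⁻¹ :=
      congrArg Subtype.val hcalc
    rw [hcalc', hb3, hc3]
    simp
  -- counting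
  have hker : φ.ker.map W.subtype ≤ W ⊓ Subgroup.centralizer {x} := by
    rintro _ ⟨a, ha, rfl⟩
    refine Subgroup.mem_inf.mpr ⟨a.2, ?_⟩
    rw [Subgroup.mem_centralizer_iff]
    intro z hz
    rw [Set.mem_singleton_iff] at hz
    subst hz
    have h1 : φ a = 1 := MonoidHom.mem_ker.mp ha
    have h2 : z * (a : P) * z⁻¹ * (a : P)⁻¹ = 1 := congrArg Subtype.val h1
    calc z * (a : P) = z * (a : P) * z⁻¹ * (a : P)⁻¹ * ((a : P) * z) := by group
      _ = (a : P) * z := by rw [h2, one_mul]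
  have hk : Nat.card ↥φ.ker ≤ Nat.card ↥(W ⊓ Subgroup.centralizer {x}) := by
    rw [← Subgroup.card_map_of_injective W.subtype_injective]
    exact Subgroup.card_le_of_le hker
  have h3 : (((⊤ : Subgroup ↥W).map φ).map φ).map φ = ⊥ := by
    rw [eq_bot_iff]
    rintro _ ⟨_, ⟨_, ⟨a, -, rfl⟩, rfl⟩, rfl⟩
    rw [Subgroup.mem_bot]
    exact hcube a
  have e0 := card_le_card_ker_mul_card_map φ ⊤
  have e1 := card_le_card_ker_mul_card_map φ ((⊤ : Subgroup ↥W).map φ)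
  have e2 := card_le_card_ker_mul_card_map φ (((⊤ : Subgroup ↥W).map φ).map φ)
  rw [h3, Subgroup.card_bot, mul_one] at e2
  have htop : Nat.card ↥(⊤ : Subgroup ↥W) = Nat.card ↥W := Subgroup.card_top
  rw [htop] at e0
  calc Nat.card ↥W ≤ Nat.card ↥φ.ker * Nat.card ↥((⊤ : Subgroup ↥W).map φ) := e0
    _ ≤ Nat.card ↥φ.ker * (Nat.card ↥φ.ker * Nat.card ↥(((⊤ : Subgroup ↥W).map φ).map φ)) :=
      Nat.mul_le_mul_left _ e1
    _ ≤ Nat.card ↥φ.ker * (Nat.card ↥φ.ker * Nat.card ↥φ.ker) :=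
      Nat.mul_le_mul_left _ (Nat.mul_le_mul_left _ e2)
    _ = Nat.card ↥φ.ker ^ 3 := by ring
    _ ≤ Nat.card ↥(W ⊓ Subgroup.centralizer {x}) ^ 3 := Nat.pow_le_pow_left hk 3

end Cfsg.Agent.Lib.Helper51.EA38
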