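import Mathlib
import Cfsg.Agent.Lib.Helper51.EA38.Defs
import Cfsg.Agent.Lib.Helper51.EA38.Chain

/-!
# S1338, package (Q5) `LemSmall` (helper51)
-/

set_option autoImplicit false

namespace Cfsg.Agent.Lib.Helper51.EA38

open Cfsg

universe u

/-- There is no subgroup strictly between `A` and `B` when `|B| = p |A|`. -/
theorem eq_of_lt_of_card_eq_prime_mul {P : Type u} [Group P] [Finite P] {A T B : Subgroup P}
    {p : ℕ} (hp : p.Prime) (hAT : A ≤ T) (hTB : T ≤ B) (hne : A ≠ T)
    (hcard : Nat.card B = p * Nat.card A) : T = B := by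
  obtain ⟨d, hd⟩ := Subgroup.card_dvd_of_le hAT
  obtain ⟨e, he⟩ := Subgroup.card_dvd_of_le hTB
  have hApos : 0 < Nat.card A := Nat.card_pos
  have hpde : p = d * e := by
    have h1 : Nat.card A * p = Nat.card A * (d * e) := by
      rw [← mul_assoc, ← hd, ← he, hcard, mul_comm]
    exact Nat.eq_of_mul_eq_mul_left hApos h1
  have hdp : d ∣ p := ⟨e, hpde⟩
  rcases (Nat.dvd_prime hp).mp hdp with h1 | h1
  · exfalso
    apply hne
    apply Subgroup.eq_of_le_of_card_ge hAT
    rw [hd, h1, mul_one]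
  · apply Subgroup.eq_of_le_of_card_ge hTB
    rw [hcard, hd, h1, mul_comm]

/-- An element centralizing `A` and an element `w ∈ B \ A` centralizes `B` when `|B| = p |A|`. -/
theorem centralizes_of_prime_step {P : Type u} [Group P] [Finite P] {A B : Subgroup P}
    {p : ℕ} (hp : p.Prime) (hAB : A ≤ B) (hcard : Nat.card B = p * Nat.card A) {w : P}
    (hwB : w ∈ B) (hwA : w ∉ A) {e : P} (hA : ∀ a ∈ A, e * a = a * e) (hw : e * w = w * e) :
    ∀ b ∈ B, e * b = b * e := by
  have hT : B ⊓ Subgroup.centralizer {e} = B := by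
    apply eq_of_lt_of_card_eq_prime_mul hp (A := A) _ inf_le_left _ hcard
    · intro a ha
      refine Subgroup.mem_inf.mpr ⟨hAB ha, ?_⟩
      rw [Subgroup.mem_centralizer_iff]
      intro z hz
      rw [Set.mem_singleton_iff] at hz
      subst hz
      exact hA a ha
    · intro h
      apply hwA
      rw [h]
      refine Subgroup.mem_inf.mpr ⟨hwB, ?_⟩
      rw [Subgroup.mem_centralizer_iff]
      intro z hz
      rw [Set.mem_singleton_iff] at hz
      subst hz
      exact hw
  intro b hb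
  have hb' : b ∈ B ⊓ Subgroup.centralizer {e} := by rw [hT]; exact hb
  have h2 := (Subgroup.mem_inf.mp hb').2
  rw [Subgroup.mem_centralizer_iff] at h2
  exact h2 e (Set.mem_singleton e)

/-- A proper subgroup misses an element. -/
theorem exists_mem_not_mem_of_card_lt {P : Type u} [Group P] [Finite P] {A B : Subgroup P}
    (hcard : Nat.card A < Nat.card B) : ∃ w ∈ B, w ∉ A := by
  by_contra hcon
  push Not at hcon
  have hle : B ≤ A := fun b hb => hcon b hb
  have := Subgroup.card_le_of_le hle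
  omega

/-- Package (Q5) of S1338, from (Q4). -/
theorem lemSmall (hS : LemStep.{u}) : LemSmall.{u} := by
  intro P _ _ hP W hWn hWEA hΩ hW9 E hE
  have : Fact (Nat.Prime 3) := ⟨Nat.prime_three⟩
  -- if `E` centralizes `W` then `E ≤ W`
  have hcentral : (∀ e ∈ E, ∀ w ∈ W, e * w = w * e) → Nat.card E ≤ 27 := by
    intro h
    have hEW : E ≤ W := fun e he => hΩ e (h e he) (hE.2 e he)
    have := Subgroup.card_le_of_le hEW
    omega
  obtain ⟨n, hn⟩ := IsPGroup.iff_card.mp (hP.to_subgroup W)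
  have hn2 : n ≤ 2 := by
    by_contra hcon
    have : 3 ^ 3 ≤ 3 ^ n := Nat.pow_le_pow_right (by norm_num) (by omega)
    omega
  -- a normal subgroup of order `3` is central
  have hcen3 : ∀ W₁ : Subgroup P, W₁.Normal → Nat.card W₁ = 3 ^ (0 + 1) →
      ∀ w ∈ W₁, ∀ g : P, g * w = w * g := by
    intro W₁ hW₁n hW₁c w hw g
    obtain ⟨W₀, -, -, hW₀c, hc₀⟩ := lemChain hP W₁ 0 hW₁n hW₁c
    have hW₀ : W₀ = ⊥ := by
      rw [pow_zero] at hW₀c
      exact Subgroup.card_eq_one.mp hW₀c
    have h := hc₀ w hw g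
    rw [hW₀, Subgroup.mem_bot] at h
    calc g * w = g * w * g⁻¹ * w⁻¹ * (w * g) := by group
      _ = w * g := by rw [h, one_mul]
  interval_cases n
  · -- `W = ⊥`
    apply hcentral
    intro e he w hw
    have hWbot : W = ⊥ := by
      rw [pow_zero] at hn
      exact Subgroup.card_eq_one.mp hn
    rw [hWbot, Subgroup.mem_bot] at hw
    rw [hw, mul_one, one_mul]
  · -- `|W| = 3`
    apply hcentral
    intro e he w hw
    exact hcen3 W hWn hn w hw e
  · -- `|W| = 9`
    obtain ⟨W₁, hW₁W, hW₁n, hW₁c, hc₁⟩ := lemChain hP W 1 hWn hn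
    have hcen := hcen3 W₁ hW₁n hW₁c
    obtain ⟨w, hwW, hwW₁⟩ := exists_mem_not_mem_of_card_lt (A := W₁) (B := W)
      (by rw [hW₁c, hn]; norm_num)
    have hstep := hS E W₁ w (fun a _ => by
        have h := W₁.inv_mem (hc₁ w hwW a)
        have h2 : (a * w * a⁻¹ * w⁻¹)⁻¹ = w * a * w⁻¹ * a⁻¹ := by group
        rwa [h2] at h)
      (fun a _ z hz => hcen z hz a)
    have hle : E ⊓ Subgroup.centralizer {w} ≤ W := by
      intro e he
      obtain ⟨heE, hew⟩ := Subgroup.mem_inf.mp he
      rw [Subgroup.mem_centralizer_iff] at hew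
      have hew' : e * w = w * e := (hew w (Set.mem_singleton w)).symm
      have hall := centralizes_of_prime_step (p := 3) Nat.prime_three hW₁W
        (by rw [hn, hW₁c]; norm_num) hwW hwW₁ (fun a ha => hcen a ha e) hew'
      exact hΩ e hall (hE.2 e heE)
    have h1 := Subgroup.card_le_of_le hle
    rw [hW₁c] at hstep
    have h3 : Nat.card W = 9 := by rw [hn]; norm_num
    calc Nat.card E ≤ 3 ^ (0 + 1) * Nat.card ↥(E ⊓ Subgroup.centralizer {w}) := hstep
      _ ≤ 3 ^ (0 + 1) * Nat.card W := Nat.mul_le_mul_left _ h1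
      _ = 27 := by rw [h3]; norm_num

end Cfsg.Agent.Lib.Helper51.EA38
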