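import Mathlib
import Cfsg.Agent.Lib.Helper51.EA38.Defs

/-!
# S1338, package (Q4) `LemStep` (helper51, hedge copy)
-/

set_option autoImplicit false

namespace Cfsg.Agent.Lib.Helper51.EA38

universe u

/-- Package (Q4) of S1338. -/
theorem lemStep : LemStep.{u} := by
  intro P _ _ A Z w hc hcent
  let φ : ↥A →* ↥Z :=
    { toFun := fun a => ⟨w * a * w⁻¹ * (a : P)⁻¹, hc a a.2⟩
      map_one' := by
        apply Subtype.ext
        simp
      map_mul' := by
        intro a b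
        apply Subtype.ext
        show w * ((a : P) * (b : P)) * w⁻¹ * ((a : P) * (b : P))⁻¹ =
          (w * a * w⁻¹ * (a : P)⁻¹) * (w * b * w⁻¹ * (b : P)⁻¹)
        have h := hcent a a.2 _ (hc b b.2)
        have h2 : (a : P) * (w * b * w⁻¹ * (b : P)⁻¹) * (a : P)⁻¹ = w * b * w⁻¹ * (b : P)⁻¹ := by
          rw [h]
          group
        calc w * ((a : P) * (b : P)) * w⁻¹ * ((a : P) * (b : P))⁻¹
            = (w * a * w⁻¹ * (a : P)⁻¹) * ((a : P) * (w * b * w⁻¹ * (b : P)⁻¹) * (a : P)⁻¹) := by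
              group
          _ = (w * a * w⁻¹ * (a : P)⁻¹) * (w * b * w⁻¹ * (b : P)⁻¹) := by rw [h2] }
  have hker : φ.ker.map A.subtype ≤ A ⊓ Subgroup.centralizer {w} := by
    rintro _ ⟨a, ha, rfl⟩
    refine Subgroup.mem_inf.mpr ⟨a.2, ?_⟩
    rw [Subgroup.mem_centralizer_iff]
    intro z hz
    rw [Set.mem_singleton_iff] at hz
    subst hz
    have h1 : φ a = 1 := MonoidHom.mem_ker.mp ha
    have h2 : z * (a : P) * z⁻¹ * (a : P)⁻¹ = 1 := congrArg Subtype.val h1
    calc z * (a : P) = z * (a : P) * z⁻¹ * (a : P)⁻¹ * ((a : P) * z) := by group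
      _ = (a : P) * z := by rw [h2, one_mul]
  have h1 : Nat.card ↥φ.ker ≤ Nat.card ↥(A ⊓ Subgroup.centralizer {w}) := by
    rw [← Subgroup.card_map_of_injective A.subtype_injective]
    exact Subgroup.card_le_of_le hker
  have h2 : Nat.card ↥φ.range ≤ Nat.card ↥Z := Subgroup.card_le_card_group φ.range
  have h3 : Nat.card ↥φ.ker * φ.ker.index = Nat.card ↥A := Subgroup.card_mul_index φ.ker
  rw [Subgroup.index_ker] at h3
  calc Nat.card ↥A = Nat.card ↥φ.ker * Nat.card ↥φ.range := h3.symm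
    _ ≤ Nat.card ↥(A ⊓ Subgroup.centralizer {w}) * Nat.card ↥Z := Nat.mul_le_mul h1 h2
    _ = Nat.card ↥Z * Nat.card ↥(A ⊓ Subgroup.centralizer {w}) := mul_comm _ _

end Cfsg.Agent.Lib.Helper51.EA38
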